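import Cfsg.Agent.H82.Goldschmidt.Sections
import Cfsg.Agent.H82.Ree.Char
import Cfsg.Agent.H6.SylowTwo
import Cfsg.Agent.H6.Exist
import Cfsg.Agent.H6.Applications
import Cfsg.Agent.H7.SzLie
import Cfsg.Agent.H7.SzTori
import Cfsg.Agent.H58.PSUThree.LocalClosed
import Cfsg.Agent.H10.J1.Invol
import Cfsg.Agent.H10.J1.Order
import Cfsg.Prelude.Def_LocalEven

/-!
# Sections `S₃`, `S₄` in the Goldschmidt groups
-/

set_option autoImplicit false

namespace Cfsg.Agent.H82.Goldschmidt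

open Matrix MatrixGroups

/-- If all elements of order dividing four of a Sylow 2-subgroup have square one, so do all. -/
theorem no_four_of_sylow {G : Type*} [Group G] [Finite G] (P : Sylow 2 G) (hP : ∀ g ∈ (P : Subgroup G), g ^ 4 = 1 → g ^ 2 = 1)
    (g : G) (hg : g ^ 4 = 1) : g ^ 2 = 1 := by
  haveI : Fact (Nat.Prime 2) := ⟨Nat.prime_two⟩
  have hp : IsPGroup 2 (Subgroup.zpowers g) := IsPGroup.of_card_dvd_pow (n := 2) (by
    rw [Nat.card_zpowers]; exact orderOf_dvd_of_pow_eq_one (by simpa using hg))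
  obtain ⟨R, hR⟩ := hp.exists_le_sylow
  obtain ⟨a, ha⟩ := MulAction.exists_smul_eq G R P
  have hm : a * g * a⁻¹ ∈ (P : Subgroup G) := by
    rw [← ha, Sylow.coe_subgroup_smul, Subgroup.pointwise_smul_def]
    exact ⟨_, hR (Subgroup.mem_zpowers _), rfl⟩
  have h2 := hP _ hm (by rw [conj_pow, hg, mul_one, mul_inv_cancel])
  rwa [conj_pow, conj_eq_one_iff] at h2

section PSL

variable {F : Type*} [Field F] [Fintype F]

theorem psl_two_no_four (h2 : (2 : F) = 0) (x : PSL(2, F)) (hx : x ^ 4 = 1) : x ^ 2 = 1 := by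
  obtain ⟨g, rfl⟩ := QuotientGroup.mk_surjective x
  change H6.π g ^ 4 = 1 at hx
  show H6.π g ^ 2 = 1
  rw [← map_pow] at hx
  have hg : g ^ 4 = 1 := H6.π_injective_of_two h2 (hx.trans (map_one _).symm)
  have h4 : H6.tr (g * g) = 0 := (H6.mul_self_eq_one_iff_two h2).1 (by rw [← hg]; simp [pow_succ, mul_assoc])
  have hgg : g * g = 1 := by
    refine (H6.mul_self_eq_one_iff_two h2).2 ?_
    have e : H6.tr (g * g) = H6.tr g ^ 2 - 2 := by
      have d := H6.sl2_det g
      simp only [H6.tr, H6.sl2_mul]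
      linear_combination (-2 : F) * d
    rw [h4, h2, sub_zero] at e
    exact (pow_eq_zero_iff two_ne_zero).1 e.symm
  rw [← map_pow, sq, hgg, map_one]

theorem psl_odd_no_four {q : ℕ} (hq : Fintype.card F = q) (h8 : q % 8 = 3 ∨ q % 8 = 5) (x : PSL(2, F))
    (hx : x ^ 4 = 1) : x ^ 2 = 1 := by
  haveI : Fact (Nat.Prime 2) := ⟨Nat.prime_two⟩
  obtain ⟨P⟩ : Nonempty (Sylow 2 PSL(2, F)) := inferInstance
  have hK := H6.sylow_two_psl2 hq h8 P
  refine no_four_of_sylow P (fun g hg _ => ?_) x hx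
  have h1 := Monoid.order_dvd_exponent (⟨g, hg⟩ : ↥(P : Subgroup PSL(2, F)))
  rw [hK.exponent_two] at h1
  exact congrArg Subtype.val (orderOf_dvd_iff_pow_eq_one.1 h1)

/-- An element of order three inverted by another one. -/
theorem psl_odd_involves_s3 (h2 : (2 : F) ≠ 0) (h3 : (3 : F) ≠ 0) :
    Cfsg.Involves (Equiv.Perm (Fin 3)) PSL(2, F) := by
  classical
  obtain ⟨c, a, hac⟩ : ∃ c a : F, -(a * a) - c * c + a * c = 1 := by
    have h4 : (4 : F) ≠ 0 := by
      intro h; exact h2 (pow_eq_zero_iff two_ne_zero |>.1 (by linear_combination h))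
    have hodd : Fintype.card F % 2 = 1 := FiniteField.odd_card_of_char_ne_two (fun hc => h2 (by
      haveI := ringChar.of_eq hc; exact CharTwo.two_eq_zero))
    obtain ⟨u, v, huv⟩ := FiniteField.exists_root_sum_quadratic
      (f := Polynomial.X ^ 2) (g := Polynomial.C (3 / 4 : F) * Polynomial.X ^ 2 + Polynomial.C 1)
      (by simp) (by
        rw [Polynomial.degree_add_eq_left_of_degree_lt]
        · exact Polynomial.degree_C_mul_X_pow 2 (div_ne_zero h3 h4)
        · rw [Polynomial.degree_C_mul_X_pow 2 (div_ne_zero h3 h4), Polynomial.degree_C one_ne_zero]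
          norm_num) hodd
    simp only [Polynomial.eval_pow, Polynomial.eval_X, Polynomial.eval_add, Polynomial.eval_mul,
      Polynomial.eval_C] at huv
    refine ⟨v, u + v / 2, ?_⟩
    field_simp at huv ⊢
    linear_combination (-1 : F) * huv
  let g : SL(2, F) := H6.sl2 0 (-1) 1 (-1) (by ring)
  let s : SL(2, F) := H6.sl2 a (c - a) c (-a) (by linear_combination hac)
  have hg3 : g ^ 3 = 1 := by
    rw [pow_three]
    apply H6.sl2_ext <;> simp [g, H6.sl2_mul]
  have hrel : g * s * g = s := by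
    apply H6.sl2_ext <;> simp [g, s, H6.sl2_mul] <;> ring
  refine H83.involves_s3_of_inverted (x := H6.π g) (t := H6.π s) ?_ ?_ ?_
  · rw [← map_pow, hg3, map_one]
  · intro h
    have hs := (H6.π_eq_one_iff_isScal.1 h).2.1
    simp [g] at hs
  · rw [← map_inv, ← map_inv, ← map_mul, ← map_mul]
    congr 1
    calc s * g * s⁻¹ = g⁻¹ * (g * s * g) * s⁻¹ := by group
      _ = g⁻¹ := by rw [hrel, mul_inv_cancel_right]

/-- `PSL₂(3^(2n+1))` has no section `S₃`. -/
theorem psl_three_not_s3 {n : ℕ} (hq : Fintype.card F = 3 ^ (2 * n + 1)) :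
    ¬ Cfsg.Involves (Equiv.Perm (Fin 3)) PSL(2, F) := by
  haveI : Fact (Nat.Prime 3) := ⟨Nat.prime_three⟩
  haveI : CharP F 3 := charP_of_card_eq_prime_pow (f := 2 * n + 1) hq
  apply not_involves_s3_of_odd_normalizers
  intro P hP hne
  obtain ⟨U, hU⟩ := H6.exists_sylow_Uinf (F := F) 3
  obtain ⟨R, hR⟩ := hP.exists_le_sylow
  obtain ⟨a, ha⟩ := MulAction.exists_smul_eq PSL(2, F) R U
  have hPU : ∀ z ∈ P, a * z * a⁻¹ ∈ H6.Uinf F := fun z hz => by
    rw [← hU, ← ha, Sylow.coe_subgroup_smul, Subgroup.pointwise_smul_def]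
    exact ⟨z, hR hz, rfl⟩
  obtain ⟨z, hz, hz1⟩ := (Subgroup.bot_or_exists_ne_one P).resolve_left hne
  have hle : (Subgroup.normalizer (P : Set PSL(2, F))).map (MulAut.conj a).toMonoidHom ≤ H6.borel F := by
    rintro _ ⟨x, hx, rfl⟩
    obtain ⟨u, hu⟩ := H6.mem_Uinf.1 (hPU z hz)
    have hu0 : u ≠ 0 := fun h => hz1 (conj_eq_one_iff.1 (hu.symm.trans (H6.π_up_eq_one_iff.2 h)))
    obtain ⟨k, hk⟩ := QuotientGroup.mk_surjective (MulAut.conj a x)
    change H6.π k = MulAut.conj a x at hk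
    show MulAut.conj a x ∈ H6.borel F
    have hmem : H6.π (k * H6.up u * k⁻¹) ∈ H6.borel F := by
      refine H6.Uinf_le_borel ?_
      rw [map_mul, map_mul, map_inv, hk, hu, MulAut.conj_apply,
        show a * x * a⁻¹ * (a * z * a⁻¹) * (a * x * a⁻¹)⁻¹ = a * (x * z * x⁻¹) * a⁻¹ by group]
      exact hPU _ ((Subgroup.mem_normalizer_iff.1 hx z).1 hz)
    rw [H6.mem_borel] at hmem
    rw [← hk, H6.mem_borel]
    simp [H6.sl2_mul, H6.up, Matrix.SpecialLinearGroup.coe_inv, Matrix.adjugate_fin_two] at hmem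
    rcases eq_or_ne (k 1 0) 0 with h | h
    · exact h
    · exfalso
      have : u * (k 1 0) ^ 2 = 0 := by linear_combination -hmem
      exact mul_ne_zero hu0 (pow_ne_zero 2 h) this
  have hcard := Subgroup.card_dvd_of_le hle
  rw [← Nat.card_congr (Subgroup.equivMapOfInjective _ _ (MulAut.conj a).injective).toEquiv] at hcard
  refine Odd.of_dvd_nat ?_ hcard
  have hb := H6.card_borel_mul (F := F) hq
  obtain ⟨o, ho, hodd⟩ : ∃ o, 3 ^ (2 * n + 1) - 1 = 2 * o ∧ Odd o := by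
    have h8 : 3 ^ (2 * n + 1) % 4 = 3 := by rw [pow_succ, pow_mul, Nat.mul_mod, Nat.pow_mod]; norm_num
    exact ⟨(3 ^ (2 * n + 1) - 1) / 2, by omega, Nat.odd_iff.2 (by omega)⟩
  rw [ho, Nat.gcd_mul_right_right] at hb
  have : Nat.card (H6.borel F) = 3 ^ (2 * n + 1) * o := by
    apply Nat.eq_of_mul_eq_mul_right (show 0 < 2 by norm_num)
    rw [hb]; ring
  rw [this]
  exact (Odd.pow (by decide)).mul hodd

end PSL

/-- The Suzuki groups have order prime to three. -/
theorem suzuki_not_three_dvd {G : Type*} [Group G] (h : Cfsg.Lie.IsoSuzuki G) : ¬ 3 ∣ Nat.card G := by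
  obtain ⟨F, _, _, m, hm, hF, ⟨e⟩⟩ := h
  have H := H7.SzHyp.of_fintype hm hF
  rw [Nat.card_congr e.toEquiv, ← Nat.card_congr H.lieEquiv.toEquiv, H.card_Sz]
  have h3 : Nat.Prime 3 := Nat.prime_three
  have hmod : 2 ^ (2 * m + 1) % 3 = 2 := by rw [pow_succ, pow_mul, Nat.mul_mod, Nat.pow_mod]; norm_num
  intro h
  rcases h3.dvd_mul.1 h with h | h
  · rcases h3.dvd_mul.1 h with h | h
    · exact absurd (h3.dvd_of_dvd_pow h) (by omega)
    · exact H7.SzHyp.not_three_dvd m h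
  · omega

/-- `PSU₃(2^n)` has no section `S₄`. -/
theorem psu_three_not_s4 {F : Type*} [Field F] [Fintype F] {n : ℕ} (hF : Fintype.card F = 4 ^ n) :
    ¬ Cfsg.Involves (Equiv.Perm (Fin 4)) (Cfsg.PSU 3 F (2 ^ n)) := by
  haveI : Fact (Nat.Prime 2) := ⟨Nat.prime_two⟩
  have hF' : Fintype.card F = 2 ^ (2 * n) := by rw [hF, show (4 : ℕ) = 2 ^ 2 from rfl, ← pow_mul]
  haveI : CharP F 2 := charP_of_card_eq_prime_pow (f := 2 * n) hF'
  apply not_involves_s4_of_locallyClosed
  exact (H58.PSUThreeLocal.locallyClosed (F := F) (p := 2) (q := 2 ^ n)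
    (by rw [hF', ← pow_mul, mul_comm])).of_surjective (QuotientGroup.mk' _) (QuotientGroup.mk'_surjective _)

/-- `PSU₃(2^n)` has a section `S₃`. -/
theorem psu_three_involves_s3 {F : Type*} [Field F] [Fintype F] {n : ℕ} (hF : Fintype.card F = 4 ^ n) :
    Cfsg.Involves (Equiv.Perm (Fin 3)) (Cfsg.PSU 3 F (2 ^ n)) := by
  haveI : Fact (Nat.Prime 2) := ⟨Nat.prime_two⟩
  haveI : CharP F 2 := charP_of_card_eq_prime_pow (f := 2 * n) (by rw [hF, show (4 : ℕ) = 2 ^ 2 from rfl, ← pow_mul])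
  have h2 : (2 : F) = 0 := CharTwo.two_eq_zero
  let xS : Matrix.SpecialLinearGroup (Fin 3) F := ⟨!![0, 1, 0; 0, 0, 1; 1, 0, 0], by simp [Matrix.det_fin_three]⟩
  let τS : Matrix.SpecialLinearGroup (Fin 3) F := ⟨!![0, 1, 0; 1, 0, 0; 0, 0, 1], by
    simp [Matrix.det_fin_three]; linear_combination (-1 : F) * h2⟩
  have hx : xS ∈ Cfsg.SU 3 F (2 ^ n) := by
    intro u v
    show Cfsg.hermForm 3 F (2 ^ n) ((xS : Matrix (Fin 3) (Fin 3) F) *ᵥ u) ((xS : Matrix (Fin 3) (Fin 3) F) *ᵥ v) = _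
    simp [xS, Cfsg.hermForm, Fin.sum_univ_three, Matrix.mulVec, dotProduct]
    ring
  have hτ : τS ∈ Cfsg.SU 3 F (2 ^ n) := by
    intro u v
    show Cfsg.hermForm 3 F (2 ^ n) ((τS : Matrix (Fin 3) (Fin 3) F) *ᵥ u) ((τS : Matrix (Fin 3) (Fin 3) F) *ᵥ v) = _
    simp [τS, Cfsg.hermForm, Fin.sum_univ_three, Matrix.mulVec, dotProduct]
    ring
  let x : Cfsg.SU 3 F (2 ^ n) := ⟨xS, hx⟩
  let τ : Cfsg.SU 3 F (2 ^ n) := ⟨τS, hτ⟩
  have hx3 : x ^ 3 = 1 := by
    rw [pow_three]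
    apply Subtype.ext; apply Subtype.ext
    ext i j
    rw [Subgroup.coe_mul, Subgroup.coe_mul, Matrix.SpecialLinearGroup.coe_mul, Matrix.SpecialLinearGroup.coe_mul]
    fin_cases i <;> fin_cases j <;> simp [x, xS, Matrix.mul_apply, Fin.sum_univ_three]
  have hτ2 : τ * τ = 1 := by
    apply Subtype.ext; apply Subtype.ext
    ext i j
    rw [Subgroup.coe_mul, Matrix.SpecialLinearGroup.coe_mul]
    fin_cases i <;> fin_cases j <;> simp [τ, τS, Matrix.mul_apply, Fin.sum_univ_three]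
  have hrel : τ * x * τ * x = 1 := by
    apply Subtype.ext; apply Subtype.ext
    ext i j
    rw [Subgroup.coe_mul, Subgroup.coe_mul, Subgroup.coe_mul, Matrix.SpecialLinearGroup.coe_mul,
      Matrix.SpecialLinearGroup.coe_mul, Matrix.SpecialLinearGroup.coe_mul]
    fin_cases i <;> fin_cases j <;> simp [x, τ, xS, τS, Matrix.mul_apply, Fin.sum_univ_three]
  have hnc : x ∉ Subgroup.center (Cfsg.SU 3 F (2 ^ n)) := by
    intro h
    have h' : (((τ * x : Cfsg.SU 3 F (2 ^ n)) : Matrix.SpecialLinearGroup (Fin 3) F) : Matrix (Fin 3) (Fin 3) F) 1 1 =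
        (((x * τ : Cfsg.SU 3 F (2 ^ n)) : Matrix.SpecialLinearGroup (Fin 3) F) : Matrix (Fin 3) (Fin 3) F) 1 1 := by
      rw [Subgroup.mem_center_iff.1 h τ]
    rw [Subgroup.coe_mul, Subgroup.coe_mul, Matrix.SpecialLinearGroup.coe_mul, Matrix.SpecialLinearGroup.coe_mul] at h'
    simp [x, τ, xS, τS, Matrix.mul_apply, Fin.sum_univ_three] at h'
  refine H83.involves_s3_of_inverted (x := QuotientGroup.mk' (Subgroup.center _) x)
    (t := QuotientGroup.mk' (Subgroup.center _) τ) ?_ ?_ ?_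
  · rw [← map_pow, hx3, map_one]
  · exact fun h => hnc ((QuotientGroup.eq_one_iff x).1 h)
  · rw [← map_inv, ← map_inv, ← map_mul, ← map_mul]
    congr 1
    rw [inv_eq_of_mul_eq_one_right hτ2]
    exact eq_inv_of_mul_eq_one_left hrel

/-- The first Janko group has a section `S₃`. -/
theorem j1_involves_s3 : Cfsg.Involves (Equiv.Perm (Fin 3)) Cfsg.Spor.J1 := by
  obtain ⟨t, -, ⟨e⟩⟩ := H10.J1.exists_involution
  haveI : Finite Cfsg.Spor.J1 := Nat.finite_of_card_ne_zero (by rw [H10.J1.card_J1]; norm_num)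
  refine H83.involves_of_subgroup (L := Subgroup.centralizer ({t} : Set Cfsg.Spor.J1))
    (H83.involves_s3_of_inverted
      (x := e.symm (1, ⟨Equiv.swap 0 1 * Equiv.swap 1 2, by rw [Equiv.Perm.mem_alternatingGroup]; decide⟩))
      (t := e.symm (1, ⟨Equiv.swap 0 1 * Equiv.swap 3 4, by rw [Equiv.Perm.mem_alternatingGroup]; decide⟩))
      ?_ ?_ ?_)
  · rw [← map_pow, MulEquiv.map_eq_one_iff]
    exact Prod.ext (one_pow _) (Subtype.ext (by simp only [Prod.pow_snd, SubgroupClass.coe_pow]; decide))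
  · rw [ne_eq, MulEquiv.map_eq_one_iff]
    exact fun h => absurd (congrArg (fun p => (p.2 : Equiv.Perm (Fin 5))) h) (by decide)
  · rw [← map_inv, ← map_mul, ← map_mul, ← map_inv]
    congr 1
    exact Prod.ext (by simp) (Subtype.ext (by
      simp only [Prod.snd_mul, Prod.snd_inv, Subgroup.coe_mul, Subgroup.coe_inv]; decide))

/-- The first Janko group has no element of order four. -/
theorem j1_no_four (g : Cfsg.Spor.J1) (hg : g ^ 4 = 1) : g ^ 2 = 1 := by
  haveI : Finite Cfsg.Spor.J1 := Nat.finite_of_card_ne_zero (by rw [H10.J1.card_J1]; norm_num)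
  haveI : Fact (Nat.Prime 2) := ⟨Nat.prime_two⟩
  obtain ⟨t, -, ⟨e⟩⟩ := H10.J1.exists_involution
  have hC : Nat.card (Subgroup.centralizer ({t} : Set Cfsg.Spor.J1)) = 120 := by
    rw [Nat.card_congr e.toEquiv, Nat.card_prod, Nat.card_congr Multiplicative.toAdd, Nat.card_zmod,
      nat_card_alternatingGroup, Nat.card_fin]
    rfl
  obtain ⟨P⟩ : Nonempty (Sylow 2 (Subgroup.centralizer ({t} : Set Cfsg.Spor.J1))) := inferInstance
  have hP : Nat.card ((P : Subgroup (Subgroup.centralizer ({t} : Set Cfsg.Spor.J1))).map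
      (Subgroup.centralizer ({t} : Set Cfsg.Spor.J1)).subtype) =
      2 ^ (Nat.card Cfsg.Spor.J1).factorization 2 := by
    have hv : ∀ k m : ℕ, ¬ 2 ∣ m → (2 ^ k * m).factorization 2 = k := fun k m hm => by
      rw [Nat.factorization_mul (by positivity) (by rintro rfl; simp at hm), Finsupp.add_apply,
        Nat.prime_two.factorization_pow, Nat.factorization_eq_zero_of_not_dvd hm]
      simp
    rw [Nat.card_congr (Subgroup.equivMapOfInjective _ _ (Subgroup.subtype_injective _)).toEquiv.symm,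
      P.card_eq_multiplicity, hC, H10.J1.card_J1, show (120 : ℕ) = 2 ^ 3 * 15 from rfl, hv 3 15 (by norm_num),
      show (175560 : ℕ) = 2 ^ 3 * 21945 from rfl, hv 3 21945 (by norm_num)]
  refine no_four_of_sylow (Sylow.ofCard _ hP) (fun x hx hx4 => ?_) g hg
  obtain ⟨y, -, rfl⟩ := hx
  have hy : e y ^ 4 = 1 := by
    rw [← map_pow, show y ^ 4 = 1 from Subtype.ext hx4, map_one]
  have key : ∀ σ : Equiv.Perm (Fin 5), Equiv.Perm.sign σ = 1 → σ ^ 4 = 1 → σ ^ 2 = 1 := by decide +kernel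
  have h2 : e y ^ 2 = 1 := by
    refine Prod.ext ?_ (Subtype.ext ?_)
    · simp only [Prod.pow_fst, Prod.fst_one]
      exact orderOf_dvd_iff_pow_eq_one.1 (by
        have := orderOf_dvd_natCard (e y).1
        rwa [Nat.card_congr Multiplicative.toAdd, Nat.card_zmod] at this)
    · simp only [Prod.pow_snd, SubgroupClass.coe_pow, Prod.snd_one, OneMemClass.coe_one]
      exact key _ (Equiv.Perm.mem_alternatingGroup.1 (e y).2.2)
        (congrArg (fun p => (p.2 : Equiv.Perm (Fin 5))) hy)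
  show ((y : Cfsg.Spor.J1)) ^ 2 = 1
  rw [← map_pow, MulEquiv.map_eq_one_iff] at h2
  exact congrArg Subtype.val h2

/-- An isomorphic group has the same sections. -/
theorem involves_equiv {G H P : Type*} [Group G] [Group H] [Group P] (e : G ≃* H) :
    Cfsg.Involves P G ↔ Cfsg.Involves P H :=
  ⟨H83.involves_of_surjective_hom e.symm.toMonoidHom e.symm.surjective,
    H83.involves_of_surjective_hom e.toMonoidHom e.surjective⟩

/-- Goldschmidt groups have no section `S₄`. -/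
theorem not_involves_s4 {G : Type*} [Group G] [Finite G] (hG : Cfsg.IsGoldschmidtGroup G) :
    ¬ Cfsg.Involves (Equiv.Perm (Fin 4)) G := by
  rcases hG with hG | ⟨F, _, _, n, hn, hF, ⟨e⟩⟩ | hG | ⟨F, _, _, n, hn, hF, ⟨e⟩⟩ |
    ⟨F, _, _, q, hq, h5, h8, ⟨e⟩⟩ | ⟨⟨e⟩⟩
  · obtain ⟨q, o, ⟨c⟩⟩ := Ree.exists_ctx hG
    haveI : Fact (Nat.Prime 2) := ⟨Nat.prime_two⟩
    obtain ⟨P⟩ : Nonempty (Sylow 2 G) := inferInstance
    exact not_involves_s4_of_no_four (no_four_of_sylow P fun g hg _ => by rw [sq]; exact c.two_sq _ P.2 g hg)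
  · rw [involves_equiv e]
    haveI : Fact (Nat.Prime 2) := ⟨Nat.prime_two⟩
    haveI : CharP F 2 := charP_of_card_eq_prime_pow (f := n) hF
    exact not_involves_s4_of_no_four (psl_two_no_four CharTwo.two_eq_zero)
  · exact fun h => suzuki_not_three_dvd hG (not_three_dvd_of_involves (by norm_num) h)
  · rw [involves_equiv e]
    exact psu_three_not_s4 hF
  · rw [involves_equiv e]
    exact not_involves_s4_of_no_four (psl_odd_no_four hq h8)
  · haveI : Finite Cfsg.Spor.J1 := Finite.of_equiv G e.toEquiv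
    rw [involves_equiv e]
    exact not_involves_s4_of_no_four j1_no_four

/-- A Goldschmidt group without a section `S₃` is a Suzuki group or `PSL₂(3^(2n+1))`. -/
theorem of_not_s3 {G : Type*} [Group G] [Finite G] (hG : Cfsg.IsGoldschmidtGroup G)
    (h : ¬ Cfsg.Involves (Equiv.Perm (Fin 3)) G) : Cfsg.IsSuzukiOrPSL2OddPowerThree G := by
  rcases hG with hG | ⟨F, _, _, n, hn, hF, ⟨e⟩⟩ | hG | ⟨F, _, _, n, hn, hF, ⟨e⟩⟩ |
    ⟨F, _, _, q, hq, h5, h8, ⟨e⟩⟩ | ⟨⟨e⟩⟩
  · exact absurd (Ree.involves_s3_of_isReeType hG) h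
  · haveI : Fact (Nat.Prime 2) := ⟨Nat.prime_two⟩
    haveI : CharP F 2 := charP_of_card_eq_prime_pow (f := n) hF
    exact absurd ((involves_equiv e).2 (Ree.involves_s3_psl_char_two CharTwo.two_eq_zero)) h
  · exact Or.inl hG
  · exact absurd ((involves_equiv e).2 (psu_three_involves_s3 hF)) h
  · obtain ⟨p, hpc⟩ := CharP.exists F
    obtain ⟨f, hp, hcard⟩ := FiniteField.card F p
    rw [hq] at hcard
    have hp2 : p ≠ 2 := fun h2 => by
      subst h2
      have : q % 2 = 0 := by rw [hcard, Nat.pow_mod]; simp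
      omega
    by_cases hp3 : p = 3
    · subst hp3
      rcases Nat.even_or_odd (f : ℕ) with ⟨k, hk⟩ | ⟨k, hk⟩
      · exfalso
        have : q % 8 = 1 := by rw [hcard, hk, ← two_mul, pow_mul, Nat.pow_mod]; norm_num
        omega
      · exact Or.inr ⟨F, inferInstance, inferInstance, k, by rw [hq, hcard, hk], ⟨e⟩⟩
    · haveI := hpc
      have hne : ∀ r : ℕ, r.Prime → r ≠ p → (r : F) ≠ 0 := fun r hr hrp h0 => by
        have := (CharP.cast_eq_zero_iff F p r).1 h0
        exact hrp ((Nat.prime_dvd_prime_iff_eq hp hr).1 this).symm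
      have h2 : (2 : F) ≠ 0 := by exact_mod_cast hne 2 Nat.prime_two (Ne.symm hp2)
      have h3 : (3 : F) ≠ 0 := by exact_mod_cast hne 3 Nat.prime_three (Ne.symm hp3)
      exact absurd ((involves_equiv e).2 (psl_odd_involves_s3 h2 h3)) h
  · exact absurd ((involves_equiv e).2 j1_involves_s3) h

/-- Suzuki groups and `PSL₂(3^(2n+1))` have no section `S₃`. -/
theorem not_involves_s3 {G : Type*} [Group G] [Finite G] (hG : Cfsg.IsSuzukiOrPSL2OddPowerThree G) :
    ¬ Cfsg.Involves (Equiv.Perm (Fin 3)) G := by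
  rcases hG with hG | ⟨F, _, _, n, hF, ⟨e⟩⟩
  · exact fun h => suzuki_not_three_dvd hG (not_three_dvd_of_involves le_rfl h)
  · rw [involves_equiv e]
    exact psl_three_not_s3 hF

end Cfsg.Agent.H82.Goldschmidt
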