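import Cfsg.Agent.H58.LocalClosed
import Cfsg.Agent.H83.Involves

/-!
# Criteria against sections `S₃` and `S₄`
-/

set_option autoImplicit false

namespace Cfsg.Agent.H82.Goldschmidt

variable {G : Type*} [Group G]

/-- A section gives a surjection from a subgroup. -/
theorem exists_hom_of_involves {P : Type*} [Group P] (h : Cfsg.Involves P G) :
    ∃ (K : Subgroup G) (φ : K →* P), Function.Surjective φ := by
  obtain ⟨K, R, hn, ⟨e⟩⟩ := h
  exact ⟨K, e.toMonoidHom.comp (QuotientGroup.mk' _), e.surjective.comp (QuotientGroup.mk'_surjective _)⟩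

/-- Without elements of order four there is no section `S₄`. -/
theorem not_involves_s4_of_no_four [Finite G] (h : ∀ g : G, g ^ 4 = 1 → g ^ 2 = 1) :
    ¬ Cfsg.Involves (Equiv.Perm (Fin 4)) G := by
  intro hinv
  obtain ⟨K, φ, hφ⟩ := exists_hom_of_involves hinv
  let σ : Equiv.Perm (Fin 4) := Equiv.swap 0 1 * Equiv.swap 1 2 * Equiv.swap 2 3
  have h4 : σ ^ 4 = 1 ∧ σ ^ 2 ≠ 1 := by decide
  obtain ⟨g, hg⟩ := hφ σ
  have hd : 4 ∣ orderOf (g : G) := by
    rw [Subgroup.orderOf_coe]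
    have e : orderOf σ = 4 := by
      haveI : Fact (Nat.Prime 2) := ⟨Nat.prime_two⟩
      exact orderOf_eq_prime_pow (p := 2) (n := 1) (by simpa using h4.2) (by simpa using h4.1)
    rw [← e, ← hg]
    exact orderOf_map_dvd φ g
  obtain ⟨m, hm⟩ := hd
  have hk : (g : G) ^ (2 * m) = 1 := by
    rw [mul_comm, pow_mul]
    exact h _ (by rw [← pow_mul, mul_comm, ← hm, pow_orderOf_eq_one])
  have := Nat.le_of_dvd (by have := orderOf_pos (g : G); omega) (orderOf_dvd_of_pow_eq_one hk)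
  have := orderOf_pos (g : G)
  omega

/-- `S₄` is not locally closed at two. -/
theorem not_locallyClosed_s4 : ¬ H58.LocallyClosed 2 (Equiv.Perm (Fin 4)) := by
  intro h
  let a : Equiv.Perm (Fin 4) := Equiv.swap 0 1
  let b : Equiv.Perm (Fin 4) := Equiv.swap 1 2
  let V : Subgroup (Equiv.Perm (Fin 4)) :=
    { carrier := {σ | σ = 1 ∨ σ = Equiv.swap 0 1 * Equiv.swap 2 3 ∨ σ = Equiv.swap 0 2 * Equiv.swap 1 3 ∨
        σ = Equiv.swap 0 3 * Equiv.swap 1 2}
      one_mem' := Or.inl rfl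
      mul_mem' := by
        rintro x y (rfl | rfl | rfl | rfl) (rfl | rfl | rfl | rfl) <;>
          simp only [Set.mem_setOf_eq] <;> decide
      inv_mem' := by
        rintro x (rfl | rfl | rfl | rfl) <;> simp only [Set.mem_setOf_eq] <;> decide }
  have hV : IsPGroup 2 V := by
    rintro ⟨x, rfl | rfl | rfl | rfl⟩ <;> exact ⟨1, Subtype.ext (by simp only [SubgroupClass.coe_pow]; decide)⟩
  have hne : V ≠ ⊥ := fun h0 => by
    have h1 := (Subgroup.eq_bot_iff_forall V).1 h0 _ (Or.inr (Or.inl rfl))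
    revert h1; decide
  have hN : ∀ g : Equiv.Perm (Fin 4), g ∈ Subgroup.normalizer (V : Set (Equiv.Perm (Fin 4))) := fun g => by
    rw [Subgroup.mem_normalizer_iff]
    intro x
    show (x = 1 ∨ _ ∨ _ ∨ _) ↔ (g * x * g⁻¹ = 1 ∨ _ ∨ _ ∨ _)
    revert g x
    decide
  obtain ⟨k, hk⟩ := h V hV hne a (hN a) b (hN b) ⟨1, by decide⟩ ⟨1, by decide⟩
  have h2 : orderOf (a * b) ∣ 3 := orderOf_dvd_of_pow_eq_one (by decide)
  have h3 := Nat.eq_one_of_dvd_coprimes (Nat.Coprime.pow_left k (by norm_num : Nat.Coprime 2 3))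
    (orderOf_dvd_of_pow_eq_one hk) h2
  rw [orderOf_eq_one_iff] at h3
  exact absurd h3 (by decide)

/-- A group locally closed at two has no section `S₄`. -/
theorem not_involves_s4_of_locallyClosed [Finite G] (h : H58.LocallyClosed 2 G) :
    ¬ Cfsg.Involves (Equiv.Perm (Fin 4)) G := by
  haveI : Fact (Nat.Prime 2) := ⟨Nat.prime_two⟩
  intro hinv
  obtain ⟨K, φ, hφ⟩ := exists_hom_of_involves hinv
  exact not_locallyClosed_s4 ((h.subgroup K).of_surjective φ hφ)

/-- A group of order prime to three has no section `S₃`. -/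
theorem not_three_dvd_of_involves [Finite G] {n : ℕ} (hn : 3 ≤ n) (hinv : Cfsg.Involves (Equiv.Perm (Fin n)) G) :
    3 ∣ Nat.card G := by
  obtain ⟨K, φ, hφ⟩ := exists_hom_of_involves hinv
  refine Dvd.dvd.trans ?_ ((Subgroup.card_dvd_of_surjective φ hφ).trans (Subgroup.card_subgroup_dvd_card K))
  rw [Nat.card_perm, Nat.card_fin]
  exact Nat.dvd_factorial (by norm_num) hn

/-- If the normalisers of the nontrivial 3-subgroups have odd order there is no section `S₃`. -/
theorem not_involves_s3_of_odd_normalizers [Finite G]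
    (h : ∀ P : Subgroup G, IsPGroup 3 P → P ≠ ⊥ → Odd (Nat.card (Subgroup.normalizer (P : Set G)))) :
    ¬ Cfsg.Involves (Equiv.Perm (Fin 3)) G := by
  classical
  haveI : Fact (Nat.Prime 3) := ⟨Nat.prime_three⟩
  intro hinv
  obtain ⟨K, φ, hφ⟩ := exists_hom_of_involves hinv
  set s : K →* ℤˣ := Equiv.Perm.sign.comp φ with hs
  set M := s.ker
  obtain ⟨g, hg⟩ := hφ (Equiv.swap 0 1 * Equiv.swap 1 2)
  have hgM : g ∈ M := by
    show Equiv.Perm.sign (φ g) = 1
    rw [hg]; decide
  have h3M : 3 ∣ Nat.card M := by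
    refine Dvd.dvd.trans ?_ (Subgroup.orderOf_dvd_natCard M hgM)
    have e : orderOf (Equiv.swap 0 1 * Equiv.swap 1 2 : Equiv.Perm (Fin 3)) = 3 :=
      orderOf_eq_prime (by decide) (by decide)
    rw [← e, ← hg]
    exact orderOf_map_dvd φ g
  obtain ⟨P⟩ : Nonempty (Sylow 3 M) := inferInstance
  have hP1 : (P : Subgroup M) ≠ ⊥ := fun h0 => by
    have h1 := P.not_dvd_index
    rw [h0, Subgroup.index_bot] at h1
    exact h1 h3M
  have hsup := Sylow.normalizer_sup_eq_top (N := M) P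
  obtain ⟨x, hx⟩ := hφ (Equiv.swap 0 1)
  have hxtop : x ∈ Subgroup.normalizer (((P : Subgroup M).map M.subtype : Subgroup K) : Set K) ⊔ M := by
    rw [hsup]; trivial
  rw [Subgroup.mem_sup_of_normal_right] at hxtop
  obtain ⟨n, hn, m, hm, hnm⟩ := hxtop
  have hsn : s n = -1 := by
    have h1 : s x = -1 := by
      show Equiv.Perm.sign (φ x) = -1
      rw [hx]; decide
    rw [← hnm, map_mul, show s m = 1 from hm, mul_one] at h1
    exact h1
  set Q : Subgroup G := ((P : Subgroup M).map M.subtype).map K.subtype with hQ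
  have hQp : IsPGroup 3 Q := (P.2.map _).map _
  have hQ1 : Q ≠ ⊥ := fun h0 => hP1 (by
    rwa [hQ, Subgroup.map_eq_bot_iff_of_injective _ K.subtype_injective,
      Subgroup.map_eq_bot_iff_of_injective _ M.subtype_injective] at h0)
  have hnQ : (n : G) ∈ Subgroup.normalizer (Q : Set G) :=
    Subgroup.le_normalizer_map K.subtype ⟨n, hn, rfl⟩
  have hodd : Odd (orderOf n) := by
    rw [← Subgroup.orderOf_coe]
    exact (h Q hQp hQ1).of_dvd_nat (Subgroup.orderOf_dvd_natCard _ hnQ)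
  obtain ⟨k, hk⟩ := hodd
  have := congrArg s (pow_orderOf_eq_one n)
  rw [map_pow, map_one, hsn, hk, pow_succ, pow_mul] at this
  simp at this

end Cfsg.Agent.H82.Goldschmidt
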